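/-
Checks for the unitary subgroup of the Higman-Sims group.
-/
import Cfsg.Agent.Lib.LeechP.Fam.SimpH
import Cfsg.Agent.Lib.KnownSimple.U35Lab.Rep
import Cfsg.Agent.Lib.U35M.Data

set_option autoImplicit false
set_option maxRecDepth 100000

namespace Cfsg.Agent.Lib.U35M

open Cfsg Cfsg.Agent.Lib.LeechP Cfsg.Agent.Lib.Golay Cfsg.Agent.Lib.Golay.Leech Cfsg.Agent.Lib.LeechX Cfsg.Agent.Lib.M24
open Cfsg.Agent.Lib.KnownSimple.LabField Cfsg.Agent.Lib.KnownSimple.LabVec
open Cfsg.Agent.Lib.KnownSimple.U35Lab (Ls)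
open Cfsg.Agent.Lib.KnownSimple.Lab (allI)

/-- A field of a packed table. -/
def gt (T w i : ℕ) : ℕ := Nat.shiftRight T (w * i) % 2 ^ w

/-- A generator on a vector. -/
def tq (m y : ℕ) : ℕ := gt (bif Nat.beq m 0 then TQ0 else TQ1) 8 y

/-- A word on a vector. -/
def wQ : List ℕ → ℕ → ℕ
  | [], y => y
  | m :: w, y => tq m (wQ w y)

/-- The tables of the letters. -/
def QAl : List ℕ := [QA0, QA1, QA2, QA3]

/-- The words of the letters. -/
def WAl : List (List ℕ) := [WA0, WA1, WA2, WA3]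

/-- A letter on a vector. -/
def qa (a y : ℕ) : ℕ := gt (QAl.getD a 0) 8 y

/-- A coefficient. -/
def cf (a y : ℕ) : ℕ := gt CF 5 (a * 252 + y)

/-- A vector. -/
def Xc (y : ℕ) : ℕ := XL.getD y 0

/-- A vector of a point. -/
def VSc (y : ℕ) : List ℕ := VS.getD y []

/-- The fixed vectors. -/
def cKL : List ℕ := [gUS, gHS, gKS, oIS]

/-- The generators. -/
def cKGm : List Mv := [Mv.mat KR0, Mv.mat KR1]

theorem cK_sys : sysChk cKL cKGm [] = true := by decide +kernel

/-- The rows of a generator. -/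
def rws (m : ℕ) : List Row := bif Nat.beq m 0 then KR0 else KR1

/-- A multiple of a code. -/
def scal (c : ℕ) (u : List ℕ) : List ℕ := (List.range 3).map fun i => mul25 c (u.getD i 0)

/-- The check of a vector. -/
noncomputable def chkX (y : ℕ) : Bool := latOK (Xc y) && decide (sqNorm (dec (Xc y)) ≤ 256)

theorem c_X : allI chkX 0 252 = true := by decide +kernel

/-- The check of a generator. -/
noncomputable def chkT (m y : ℕ) : Bool := Nat.blt (tq m y) 252 && Nat.beq (evalM (rws m) (Xc y)) (Xc (tq m y))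

theorem c_T0 : allI (chkT 0) 0 252 = true := by decide +kernel
theorem c_T1 : allI (chkT 1) 0 252 = true := by decide +kernel

/-- The check of a letter. -/
def chkQ (a y : ℕ) : Bool := Nat.beq (qa a y) (wQ (WAl.getD a []) y)

theorem c_Q : ∀ a < 4, allI (chkQ a) 0 252 = true := by decide +kernel

theorem c_words : ∀ a < 4, ∀ m ∈ WAl.getD a [], m < 2 := by decide +kernel

/-- The check of a letter on the points. -/
def chkL (a y : ℕ) : Bool :=
  decide (mulVC add25 mul25 3 (Ls.getD a []) (VSc y) = scal (cf a y) (VSc (qa a y)))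

theorem c_L : ∀ a < 4, allI (chkL a) 0 252 = true := by decide +kernel

theorem c_sep : ∀ la < 25, la ≠ 0 → ∀ ca < 25, ¬ (∀ i < 3,
    mul25 la ((mulVC add25 mul25 3 (Ls.getD 0 []) (VSc y0)).getD i 0) = mul25 ca ((VSc y0).getD i 0)) := by decide +kernel

theorem c_bd : (∀ a < 25, ∀ b < 25, mul25 a b < 25) ∧
    (∀ i < 3, (mulVC add25 mul25 3 (Ls.getD 0 []) (VSc y0)).getD i 0 < 25 ∧ (VSc y0).getD i 0 < 25) := by
  decide +kernel

theorem c_y0 : y0 < 252 ∧ ∀ y < 252, Xc y = Xc y0 → y = y0 := by decide +kernel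

end Cfsg.Agent.Lib.U35M
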