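/-
The stabiliser of a vector in the action of the Higman-Sims group on 352 vectors is the unitary group.
-/
import Cfsg.Agent.Lib.U35M.Chk
import Cfsg.Agent.Lib.U43M.Abs
import Cfsg.Agent.Lib.Classical.PSUSimple

set_option autoImplicit false
set_option maxRecDepth 100000

namespace Cfsg.Agent.Lib.U35M

open Cfsg Cfsg.Agent.Lib.LeechP Cfsg.Agent.Lib.Golay Cfsg.Agent.Lib.Golay.Leech Cfsg.Agent.Lib.LeechX Cfsg.Agent.Lib.M24
open Cfsg.Agent.Lib.KnownSimple.LabField Cfsg.Agent.Lib.KnownSimple.LabVec Cfsg.Agent.Lib.KnownSimple.LabSU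
open Cfsg.Agent.Lib.KnownSimple.LabMat
open Cfsg.Agent.Lib.KnownSimple.U35Lab (Ls gm hgm hclo4)
open Cfsg.Agent.Lib.KnownSimple.Lab (allI of_allI)
open Matrix MulAction

/-- A vector of the lattice. -/
noncomputable def Xv (y : ℕ) : ↥leechLattice :=
  open _root_.Classical in if h : dec (Xc y) ∈ leechLattice then ⟨dec (Xc y), h⟩ else 0

lemma chkX_spec {y : ℕ} (hy : y < 252) :
    Val (Xc y) ∧ dec (Xc y) ∈ leechLattice ∧ sqNorm (dec (Xc y)) ≤ 256 := by
  have h : chkX y = true := of_allI c_X y (by omega) (by omega)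
  simp only [chkX, Bool.and_eq_true, decide_eq_true_eq] at h
  have h2 := lat_of_latOK h.1
  exact ⟨h2.1, h2.2, h.2⟩

lemma Xv_coe {y : ℕ} (hy : y < 252) : (Xv y).1 = dec (Xc y) := by
  unfold Xv
  rw [dif_pos (chkX_spec hy).2.1]

lemma rws_mat {m : ℕ} (hm : m < 2) : MatOK (Fx cKL) (rws m) := by
  have hS := cK_sys
  simp only [sysChk, Bool.and_eq_true] at hS
  obtain ⟨⟨h1, h2⟩, _⟩ := hS
  have hL := goodL_of _ h1
  have hm' : m = 0 ∨ m = 1 := by omega
  rcases hm' with rfl | rfl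
  · exact mvOK_of_chk hL (allL_spec h2 (Mv.mat KR0) (by simp [cKGm]))
  · exact mvOK_of_chk hL (allL_spec h2 (Mv.mat KR1) (by simp [cKGm]))

lemma gen_act {m : ℕ} (hm : m < 2) : ∃ g ∈ Fx cKL, ∀ y < 252, tq m y < 252 ∧ g • Xv y = Xv (tq m y) := by
  obtain ⟨hr, g, hg, hc⟩ := rws_mat hm
  refine ⟨g, hg, fun y hy => ?_⟩
  have hchk : chkT m y = true := by
    have hm' : m = 0 ∨ m = 1 := by omega
    rcases hm' with rfl | rfl
    · exact of_allI c_T0 y (by omega) (by omega)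
    · exact of_allI c_T1 y (by omega) (by omega)
  simp only [chkT, Bool.and_eq_true] at hchk
  have h1 : tq m y < 252 := blt_sound hchk.1
  have h2 : evalM (rws m) (Xc y) = Xc (tq m y) := Nat.eq_of_beq_eq_true hchk.2
  refine ⟨h1, ?_⟩
  obtain ⟨hv, hd, hb⟩ := chkX_spec hy
  have h3 := (evalM_spec hr hc hv hd hb).2
  rw [h2] at h3
  apply Subtype.ext
  rw [Xv_coe h1, h3]
  have h4 : Xv y = ⟨dec (Xc y), hd⟩ := Subtype.ext (Xv_coe hy)
  rw [h4]
  rfl

lemma word_K (w : List ℕ) (hw : ∀ m ∈ w, m < 2) :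
    ∃ g ∈ Fx cKL, ∀ y < 252, wQ w y < 252 ∧ g • Xv y = Xv (wQ w y) := by
  induction w with
  | nil => exact ⟨1, Subgroup.one_mem _, fun y hy => ⟨hy, one_smul _ _⟩⟩
  | cons m w ih =>
    obtain ⟨g, hg, h⟩ := ih (fun j hj => hw j (List.mem_cons_of_mem _ hj))
    obtain ⟨g', hg', h'⟩ := gen_act (hw m List.mem_cons_self)
    refine ⟨g' * g, Subgroup.mul_mem _ hg' hg, fun y hy => ?_⟩
    obtain ⟨h1, h2⟩ := h y hy
    obtain ⟨h3, h4⟩ := h' _ h1
    exact ⟨h3, by rw [mul_smul, h2, h4]; rfl⟩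

lemma toV_scal' {F : Type*} [Field F] (R : Rep F 25 add25 mul25) (c : ℕ) (u : List ℕ) :
    toV R.φ 3 (scal c u) = R.φ c • toV R.φ 3 u := by
  ext i
  simp only [toV, scal, Pi.smul_apply, smul_eq_mul]
  rw [getD_range_map' _ i.2, R.hmul]

lemma mulVec_diag_aux {F : Type*} [Field F] (lam : F) (v : Fin 3 → F) :
    Matrix.diagonal (fun _ : Fin 3 => lam) *ᵥ v = lam • v := by
  ext i
  simp [Matrix.mulVec_diagonal]

section

variable {F : Type*} [Field F] [Fintype F] (R : Rep F 25 add25 mul25)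

/-- The relation. -/
def Rel (s : Cfsg.SU 3 F 5) (k : ↥(Fx cKL)) : Prop :=
  ∀ y < 252, ∃ y' < 252, k.1 • Xv y = Xv y' ∧ ∃ c : F,
    suHom 3 F 5 s *ᵥ toV R.φ 3 (VSc y) = c • toV R.φ 3 (VSc y')

omit [Fintype F] in
lemma letter_pt {a y : ℕ} (ha : a < 4) (hy : y < 252) (A : Matrix (Fin 3) (Fin 3) F)
    (hA : A = toM R.φ 3 (Ls.getD a [])) :
    A *ᵥ toV R.φ 3 (VSc y) = R.φ (cf a y) • toV R.φ 3 (VSc (qa a y)) := by
  have h : chkL a y = true := of_allI (c_L a ha) y (by omega) (by omega)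
  simp only [chkL, decide_eq_true_eq] at h
  subst hA
  rw [← toV_mulVC R.hadd R.hmul R.h0, h, toV_scal']

end

/-- The group of the standard vector. -/
abbrev bI : ↥leechLattice := bv oI_fv

theorem mem_Gi_iff {g : ↥Co0} : g ∈ Fx cKL ↔ g ∈ Gh ∧ g • bI = bI := by
  constructor
  · intro h
    have h1 : g • bU = bU := fx_bv h gU_fv (by simp [cKL])
    have h2 : g • bH = bH := fx_bv h gH_fv (by simp [cKL])
    have h3 : g • bI = bI := fx_bv h oI_fv (by simp [cKL])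
    exact ⟨⟨h1, h2⟩, h3⟩
  · rintro ⟨h0, h3⟩ m hm hd
    have h1 := fixH (mem_Gh_iff.1 h0)
    simp only [cKL, List.mem_cons, List.not_mem_nil, or_false] at hm
    rcases hm with rfl | rfl | rfl | rfl
    · exact h1.1
    · exact h1.2.1
    · exact h1.2.2
    · exact h3

theorem orbit_I : orbit ↥Gh bI = S2 bU (-16) bH (-8) := by
  apply orbit_eq_of oI_mem
  · intro h hh z hz
    exact (S2_smul h hh.1 hh.2 (-16) (-8) z).1 hz
  · intro z hz
    obtain ⟨g, hg, e⟩ := trans_QS (fun z hz => oI_reach hz) oI_mem hz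
    exact ⟨g, mem_Gh_iff.2 hg, e⟩

theorem card_Gi : Nat.card ↥(Fx cKL) = 126000 := by
  have h1 := card_inf_stb Gh bI
  have h2 : (S2 bU (-16) bH (-8)).ncard = 352 := oI_card
  rw [card_Gh, orbit_I, h2] at h1
  have h3 : Gh ⊓ stb bI = Fx cKL := by
    ext g
    rw [mem_Gi_iff]
    rfl
  rw [h3] at h1
  have e : (126000 : ℕ) * 352 = 44352000 := by norm_num
  exact Nat.eq_of_mul_eq_mul_right (by norm_num) (h1.trans e.symm)

/-- The standard case. -/
theorem iso_std {F : Type*} [Field F] [Fintype F] (hF : Fintype.card F = 25) : Nonempty (↥(Fx cKL) ≃* Cfsg.PSU 3 F 5) := by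
  classical
  have hF' : Fintype.card F = 5 ^ 2 := by rw [hF]; norm_num
  obtain ⟨R⟩ := exists_rep25 hF
  have hcK : Nat.card ↥(Fx cKL) = 126000 := card_Gi
  have hcP : Nat.card (Cfsg.PSU 3 F 5) = 126000 := by
    have h1 := card_psu (n := 3) hF' (by norm_num)
    have h2 : ∏ i ∈ Finset.range 3, (if Even i then 5 ^ (i + 1) + 1 else 5 ^ (i + 1) - 1) = 18144 := by decide
    rw [h2] at h1
    rw [show Nat.gcd 3 (5 + 1) = 3 by decide, show (5 : ℕ) ^ (3 * (3 - 1) / 2) * 18144 = 2268000 by norm_num] at h1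
    omega
  haveI hfK : Finite ↥(Fx cKL) := Nat.finite_of_card_ne_zero (by rw [hcK]; norm_num)
  haveI hfS : Finite (Cfsg.SU 3 F 5) := inferInstance
  have hlet : ∀ a : ℕ, ∃ g : ↥(Fx cKL), a < 4 → ∀ y < 252, qa a y < 252 ∧ g.1 • Xv y = Xv (qa a y) := by
    intro a
    by_cases ha : a < 4
    · obtain ⟨g, hg, h⟩ := word_K (WAl.getD a []) (c_words a ha)
      refine ⟨⟨g, hg⟩, fun _ y hy => ?_⟩
      have e : qa a y = wQ (WAl.getD a []) y := by
        have h1 : chkQ a y = true := of_allI (c_Q a ha) y (by omega) (by omega)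
        exact Nat.eq_of_beq_eq_true h1
      rw [e]
      exact h y hy
    · exact ⟨1, fun h => absurd h ha⟩
  choose Γ hΓ using hlet
  let π : Cfsg.SU 3 F 5 →* Cfsg.PSU 3 F 5 := QuotientGroup.mk' _
  have hπ : Function.Surjective π := QuotientGroup.mk'_surjective _
  refine Cfsg.Agent.Lib.J2U.iso_of_simple π hπ (Cfsg.Agent.Lib.Classical.psu_simple hF' (by norm_num) (by norm_num))
    (hcK.trans hcP.symm) (gm R hF') Γ 4 (hclo4 R hF') (Rel R) ?_ ?_ (gm R hF' 0) ?_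
  · intro y hy
    refine ⟨y, hy, one_smul _ _, 1, ?_⟩
    rw [map_one, Matrix.one_mulVec, one_smul]
  · intro a ha s k hR y hy
    obtain ⟨y', hy', e, c1, e1⟩ := hR y hy
    obtain ⟨q1, q2⟩ := hΓ a ha y' hy'
    have l1 := letter_pt R ha hy' _ (hgm R hF' a (by omega))
    refine ⟨qa a y', q1, ?_, c1 * R.φ (cf a y'), ?_⟩
    · show ((Γ a).1 * k.1) • Xv y = _
      rw [mul_smul, e, q2]
    · rw [map_mul, ← Matrix.mulVec_mulVec, e1, Matrix.mulVec_smul, l1, smul_smul]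
  · intro s hR he
    have hz : (gm R hF' 0)⁻¹ * s ∈ Subgroup.center (Cfsg.SU 3 F 5) := QuotientGroup.eq.1 he.symm
    obtain ⟨lam, hlam⟩ := Cfsg.Agent.Lib.Classical.su_center_scalar hF' (by norm_num) ⟨_, hz⟩
    have hdet : Matrix.det (((gm R hF' 0)⁻¹ * s).1.1 : Matrix (Fin 3) (Fin 3) F) = 1 := ((gm R hF' 0)⁻¹ * s).1.2
    have hlam' : (((gm R hF' 0)⁻¹ * s).1.1 : Matrix (Fin 3) (Fin 3) F) = Matrix.diagonal (fun _ => lam) := hlam
    have hl0 : lam ≠ 0 := by
      rintro rfl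
      rw [hlam', Matrix.det_diagonal] at hdet
      simp at hdet
    have hs : suHom 3 F 5 s = suHom 3 F 5 (gm R hF' 0) * Matrix.diagonal (fun _ => lam) := by
      have h1 : s = gm R hF' 0 * ((gm R hF' 0)⁻¹ * s) := by group
      conv_lhs => rw [h1]
      rw [map_mul]
      congr 1
    obtain ⟨y', hy', e, c1, e1⟩ := hR y0 c_y0.1
    have hyy : y' = y0 := by
      have h1 : Xv y0 = Xv y' := e
      have h2 : dec (Xc y0) = dec (Xc y') := by
        rw [← Xv_coe c_y0.1, ← Xv_coe hy', h1]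
      have h3 := dec_inj (chkX_spec c_y0.1).1 (chkX_spec hy').1 h2
      exact c_y0.2 y' hy' h3.symm
    subst hyy
    rw [hs, ← Matrix.mulVec_mulVec, mulVec_diag_aux lam, Matrix.mulVec_smul, hgm R hF' 0 (by norm_num),
      ← toV_mulVC R.hadd R.hmul R.h0] at e1
    obtain ⟨la, hla, rfl⟩ := R.hsurj lam
    obtain ⟨ca, hca, rfl⟩ := R.hsurj c1
    have hla0 : la ≠ 0 := by
      rintro rfl
      exact hl0 R.h0
    refine c_sep la hla hla0 ca hca ?_
    intro i hi
    have h2 := congrFun e1 ⟨i, hi⟩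
    simp only [toV, Pi.smul_apply, smul_eq_mul] at h2
    obtain ⟨b1, b2⟩ := c_bd.2 i hi
    apply R.hinj _ _ (c_bd.1 _ hla _ b1) (c_bd.1 _ hca _ b2)
    rw [R.hmul, R.hmul]
    exact h2

/-- Transport along a conjugation. -/
theorem conj_equiv {G : Type*} [Group G] (a : G) (H H' : Subgroup G) (h : ∀ g, g ∈ H ↔ a * g * a⁻¹ ∈ H') :
    Nonempty (H ≃* H') := by
  refine ⟨{ toFun := fun g => ⟨a * g.1 * a⁻¹, (h _).1 g.2⟩
            invFun := fun g => ⟨a⁻¹ * g.1 * a, (h _).2 (by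
              have e : a * (a⁻¹ * g.1 * a) * a⁻¹ = g.1 := by group
              rw [e]
              exact g.2)⟩
            left_inv := fun g => Subtype.ext (by simp [mul_assoc])
            right_inv := fun g => Subtype.ext (by simp [mul_assoc])
            map_mul' := fun x y => Subtype.ext (by simp [mul_assoc]) }⟩

lemma dot_neg_right' (v x : GolayPt → ℤ) : dotInt v (-x) = - dotInt v x := by
  simp only [dotInt, Pi.neg_apply, mul_neg, Finset.sum_neg_distrib]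

lemma dot_neg_left' (v x : GolayPt → ℤ) : dotInt (-v) x = - dotInt v x := by
  simp only [dotInt, Pi.neg_apply, neg_mul, Finset.sum_neg_distrib]

lemma bH_expr : bH = -bK - bU := by
  rw [← bK_eq]
  abel

lemma dot_bH (y : ↥leechLattice) : dotInt bH.1 y.1 = - dotInt bK.1 y.1 - dotInt bU.1 y.1 := by
  have e : bH.1 = -bK.1 - bU.1 := by
    conv_lhs => rw [bH_expr]
    rfl
  rw [e, sub_eq_add_neg, ← sub_eq_add_neg]
  simp only [dotInt, Pi.sub_apply, Pi.neg_apply, sub_mul, neg_mul, Finset.sum_sub_distrib, Finset.sum_neg_distrib]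

/-- The set of the statement and the base set. -/
theorem key_set (a : ↥Co0) {v w : ↥leechLattice} (h1 : a • v = bU) (h2 : a • w = bK) (x : ↥leechLattice) :
    (sqNorm x.1 = 32 ∧ dotInt v.1 x.1 = 16 ∧ dotInt w.1 x.1 = -24) ↔ -(a • x) ∈ S2 bU (-16) bH (-8) := by
  rw [mem_S2]
  have e1 : sqNorm (-(a • x)).1 = sqNorm x.1 := by
    show sqNorm (-(a • x).1) = _
    rw [sqNorm_neg, norm_smul]
  have e2 : dotInt bU.1 (-(a • x)).1 = - dotInt v.1 x.1 := by
    show dotInt bU.1 (-(a • x).1) = _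
    rw [dot_neg_right', ← h1, dot_smul]
  have e3 : dotInt bK.1 (-(a • x)).1 = - dotInt w.1 x.1 := by
    show dotInt bK.1 (-(a • x).1) = _
    rw [dot_neg_right', ← h2, dot_smul]
  rw [e1, e2, dot_bH, e2, e3]
  constructor
  · rintro ⟨a1, a2, a3⟩
    exact ⟨a1, by omega, by omega⟩
  · rintro ⟨a1, a2, a3⟩
    exact ⟨a1, by omega, by omega⟩

/-- The theorem. -/
theorem main_352 (v w : ↥leechLattice) (hv : sqNorm v.1 = 48) (hw : sqNorm w.1 = 48) (hvw : dotInt v.1 w.1 = -32)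
    (F : Type) [Field F] [Fintype F] (hF : Fintype.card F = 25) :
    {x : ↥leechLattice | sqNorm x.1 = 32 ∧ dotInt v.1 x.1 = 16 ∧ dotInt w.1 x.1 = -24}.ncard = 352 ∧
    (∀ x ∈ {x : ↥leechLattice | sqNorm x.1 = 32 ∧ dotInt v.1 x.1 = 16 ∧ dotInt w.1 x.1 = -24},
      -w - x ∈ {x : ↥leechLattice | sqNorm x.1 = 32 ∧ dotInt v.1 x.1 = 16 ∧ dotInt w.1 x.1 = -24}) ∧
    (∀ x ∈ {x : ↥leechLattice | sqNorm x.1 = 32 ∧ dotInt v.1 x.1 = 16 ∧ dotInt w.1 x.1 = -24},
      ∀ x' ∈ {x : ↥leechLattice | sqNorm x.1 = 32 ∧ dotInt v.1 x.1 = 16 ∧ dotInt w.1 x.1 = -24},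
        ∃ g : ↥Co0, g • v = v ∧ g • w = w ∧ g • x = x') ∧
    ∀ x ∈ {x : ↥leechLattice | sqNorm x.1 = 32 ∧ dotInt v.1 x.1 = 16 ∧ dotInt w.1 x.1 = -24},
      Nonempty (↥(MulAction.stabilizer ↥Co0 v ⊓ MulAction.stabilizer ↥Co0 w ⊓ MulAction.stabilizer ↥Co0 x) ≃* Cfsg.PSU 3 F 5) := by
  obtain ⟨a, h1, h2⟩ := hs_frame v w hv hw hvw
  have hk := key_set a h1 h2
  have hneg : ∀ (g : ↥Co0) (z : ↥leechLattice), g • (-z) = -(g • z) := fun g z => smul_neg' g z
  refine ⟨?_, ?_, ?_, ?_⟩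
  · have h3 : (S2 bU (-16) bH (-8)).ncard = 352 := oI_card
    rw [← h3]
    apply Set.ncard_congr (fun x _ => -(a • x))
    · intro x hx
      exact (hk x).1 hx
    · intro x y _ _ e
      have e2 : a • x = a • y := neg_injective e
      exact smul_left_cancel a e2
    · intro y hy
      refine ⟨a⁻¹ • (-y), ?_, ?_⟩
      · show _ ∧ _ ∧ _
        apply (hk _).2
        rw [smul_inv_smul, neg_neg]
        exact hy
      · show -(a • (a⁻¹ • (-y))) = y
        rw [smul_inv_smul, neg_neg]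
  · rintro x ⟨x1, x2, x3⟩
    have e : (-w - x).1 = -w.1 - x.1 := rfl
    refine ⟨?_, ?_, ?_⟩
    · rw [e, sqNorm_sub, sqNorm_neg, hw, x1, dot_neg_left', x3]
      norm_num
    · rw [e, dot_sub_right, dot_neg_right', hvw, x2]
      norm_num
    · rw [e, dot_sub_right, dot_neg_right', dot_self_eq, hw, x3]
      norm_num
  · intro x hx x' hx'
    obtain ⟨g, g1, g2, g3⟩ := t352 _ ((hk x).1 hx) _ ((hk x').1 hx')
    have g4 : g • bK = bK := by
      rw [← bK_eq, smul_sub', smul_neg', g2, g1]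
    refine ⟨a⁻¹ * g * a, conj_fix h1 g1, conj_fix h2 g4, ?_⟩
    simp only [mul_smul]
    have g5 : g • (a • x) = a • x' := by
      have e := g3
      rw [hneg] at e
      exact neg_injective e
    rw [g5, inv_smul_smul]
  · intro x hx
    obtain ⟨g, g1, g2, g3⟩ := t352 _ ((hk x).1 hx) _ oI_mem
    have g4 : g • bK = bK := by
      rw [← bK_eq, smul_sub', smul_neg', g2, g1]
    have g5 : g • (a • x) = -bI := by
      have e := g3
      rw [hneg] at e
      exact neg_eq_iff_eq_neg.1 e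
    obtain ⟨e⟩ := iso_std (F := F) hF
    have ha1 : (g * a) • v = bU := by rw [mul_smul, h1, g1]
    have ha2 : (g * a) • w = bK := by rw [mul_smul, h2, g4]
    have ha3 : (g * a) • x = -bI := by rw [mul_smul, g5]
    obtain ⟨e'⟩ := conj_equiv (g * a) (MulAction.stabilizer ↥Co0 v ⊓ MulAction.stabilizer ↥Co0 w ⊓ MulAction.stabilizer ↥Co0 x) (Fx cKL) (by
      intro t
      have key : ∀ {p q : ↥leechLattice}, (g * a) • p = q → (((g * a) * t * (g * a)⁻¹) • q = q ↔ t • p = p) := by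
        intro p q hq
        subst hq
        rw [mul_smul ((g * a) * t) (g * a)⁻¹, mul_smul (g * a) t, inv_smul_smul]
        exact smul_left_cancel_iff (g * a)
      rw [mem_Gi_iff, ← Gh_eq]
      constructor
      · rintro ⟨⟨a1, a2⟩, a3⟩
        refine ⟨⟨(key ha1).2 a1, (key ha2).2 a2⟩, ?_⟩
        have b3 := (key ha3).2 a3
        rw [hneg] at b3
        exact neg_injective b3
      · rintro ⟨⟨b1, b2⟩, b3⟩
        refine ⟨⟨(key ha1).1 b1, (key ha2).1 b2⟩, (key ha3).1 ?_⟩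
        rw [hneg, b3])
    exact ⟨e'.trans e⟩

end Cfsg.Agent.Lib.U35M
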